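import Cfsg.Agent.Lib.Solvable.Misc1
import Cfsg.Agent.Lib.Solvable.Fitting
import Cfsg.Agent.Lib.Solvable.Basic
import Mathlib

/-!
# `p`-elements, and the arithmetic behind Winter's theorem on degrees
-/

set_option autoImplicit false
set_option linter.style.haveILetI false
set_option linter.unusedVariables false
set_option linter.deprecated false

namespace Cfsg.Agent.Lib.Char.WinterQ

universe u

section PEl

variable {G : Type*} [Group G]

/-- `x` is a `p`-element. -/
def PEl (p : ℕ) (x : G) : Prop := ∃ k : ℕ, x ^ p ^ k = 1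

/-- The `p`-elements are closed under products. -/
def PClosed (p : ℕ) (G : Type*) [Group G] : Prop :=
  ∀ x y : G, PEl p x → PEl p y → PEl p (x * y)

theorem PEl.conj {p : ℕ} {x : G} (h : PEl p x) (g : G) : PEl p (g * x * g⁻¹) := by
  obtain ⟨k, hk⟩ := h
  refine ⟨k, ?_⟩
  rw [conj_pow, hk]
  simp

theorem PEl.map {H : Type*} [Group H] (f : G →* H) {p : ℕ} {x : G} (h : PEl p x) : PEl p (f x) := by
  obtain ⟨k, hk⟩ := h
  exact ⟨k, by rw [← map_pow, hk, map_one]⟩

theorem PEl.of_le {p : ℕ} (hp : 0 < p) {x : G} {k l : ℕ} (hkl : k ≤ l) (h : x ^ p ^ k = 1) :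
    x ^ p ^ l = 1 := by
  obtain ⟨m, rfl⟩ := Nat.exists_eq_add_of_le hkl
  rw [pow_add, pow_mul, h, one_pow]

/-- The subgroup of `p`-elements. -/
def pElSubgroup {p : ℕ} (h : PClosed p G) [Finite G] (hp : p.Prime) : Subgroup G where
  carrier := {x | PEl p x}
  mul_mem' := fun {a b} ha hb => h a b ha hb
  one_mem' := ⟨0, by simp⟩
  inv_mem' := by
    rintro a ⟨k, hk⟩
    exact ⟨k, by rw [inv_pow, hk, inv_one]⟩

theorem normal_of_closed [Finite G] {p : ℕ} [hp : Fact p.Prime] (h : PClosed p G) (P : Sylow p G) :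
    (P : Subgroup G).Normal := by
  set T := pElSubgroup h hp.out with hT
  have hTp : IsPGroup p T := by
    rintro ⟨x, k, hk⟩
    exact ⟨k, Subtype.ext (by simpa using hk)⟩
  have hPT : (P : Subgroup G) ≤ T := by
    intro x hx
    obtain ⟨k, hk⟩ := P.isPGroup' ⟨x, hx⟩
    exact ⟨k, by simpa using congrArg Subtype.val hk⟩
  have hEq : T = P := P.is_maximal' hTp hPT
  rw [← hEq]
  constructor
  intro n hn g
  exact PEl.conj hn g

theorem closed_of_normal [Finite G] {p : ℕ} [hp : Fact p.Prime]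
    (h : ∀ P : Sylow p G, (P : Subgroup G).Normal) : PClosed p G := by
  rintro x y ⟨k, hk⟩ ⟨l, hl⟩
  have hx : IsPGroup p (Subgroup.zpowers x) := by
    rw [IsPGroup.iff_card]
    rw [Nat.card_zpowers]
    have h1 : orderOf x ∣ p ^ k := orderOf_dvd_of_pow_eq_one hk
    obtain ⟨j, -, hj⟩ := (Nat.dvd_prime_pow hp.out).mp h1
    exact ⟨j, hj⟩
  have hy : IsPGroup p (Subgroup.zpowers y) := by
    rw [IsPGroup.iff_card]
    rw [Nat.card_zpowers]
    have h1 : orderOf y ∣ p ^ l := orderOf_dvd_of_pow_eq_one hl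
    obtain ⟨j, -, hj⟩ := (Nat.dvd_prime_pow hp.out).mp h1
    exact ⟨j, hj⟩
  obtain ⟨Q₁, hQ₁⟩ := hx.exists_le_sylow
  obtain ⟨Q₂, hQ₂⟩ := hy.exists_le_sylow
  have hQ₁n := h Q₁
  obtain ⟨g, hg⟩ := MulAction.exists_smul_eq G Q₁ Q₂
  have heq : Q₂ = Q₁ := by
    rw [← hg]
    haveI := hQ₁n
    exact Sylow.smul_eq_of_normal
  have hxm : x ∈ (Q₁ : Subgroup G) := hQ₁ (Subgroup.mem_zpowers x)
  have hym : y ∈ (Q₁ : Subgroup G) := by
    rw [← heq]
    exact hQ₂ (Subgroup.mem_zpowers y)
  obtain ⟨j, hj⟩ := Q₁.isPGroup' ⟨x * y, Subgroup.mul_mem _ hxm hym⟩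
  exact ⟨j, by simpa using congrArg Subtype.val hj⟩

theorem closed_of_isNilpotent [Finite G] {p : ℕ} [hp : Fact p.Prime] (hG : Group.IsNilpotent G) :
    PClosed p G := by
  apply closed_of_normal
  intro P
  exact Sylow.normal_of_normalizerCondition (normalizerCondition_of_isNilpotent) P

end PEl

section Cong

/-- The conjugation action of a cyclic group on a normal subgroup, counted modulo `p`. -/
theorem card_modEq_centralizer {X : Type*} [Group X] [Finite X] {p : ℕ} [hp : Fact p.Prime]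
    (T : Subgroup X) (hT : T.Normal) {y : X} (hy : PEl p y) :
    Nat.card T ≡ Nat.card ↥(T ⊓ Subgroup.centralizer ({y} : Set X)) [MOD p] := by
  classical
  obtain ⟨k, hk⟩ := hy
  have hY : IsPGroup p (Subgroup.zpowers y) := by
    rw [IsPGroup.iff_card, Nat.card_zpowers]
    have h1 : orderOf y ∣ p ^ k := orderOf_dvd_of_pow_eq_one hk
    obtain ⟨j, -, hj⟩ := (Nat.dvd_prime_pow hp.out).mp h1
    exact ⟨j, hj⟩
  letI act : MulAction (Subgroup.zpowers y) T :=
    { smul := fun g t => ⟨(g : X) * t * (g : X)⁻¹, hT.conj_mem _ t.2 _⟩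
      one_smul := fun t => Subtype.ext (by
        show ((1 : Subgroup.zpowers y) : X) * (t : X) * ((1 : Subgroup.zpowers y) : X)⁻¹ = t
        simp)
      mul_smul := fun a b t => Subtype.ext (by
        show ((a * b : Subgroup.zpowers y) : X) * (t : X) * ((a * b : Subgroup.zpowers y) : X)⁻¹ =
          (a : X) * ((b : X) * t * (b : X)⁻¹) * (a : X)⁻¹
        simp only [Subgroup.coe_mul, mul_inv_rev]
        group) }
  have h1 := hY.card_modEq_card_fixedPoints T
  have h2 : Nat.card (MulAction.fixedPoints (Subgroup.zpowers y) T) =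
      Nat.card ↥(T ⊓ Subgroup.centralizer ({y} : Set X)) := by
    apply Nat.card_congr
    refine
      { toFun := fun t => ⟨t.1.1, t.1.2, ?_⟩
        invFun := fun t => ⟨⟨t.1, t.2.1⟩, ?_⟩
        left_inv := fun t => rfl
        right_inv := fun t => rfl }
    · show (t.1.1 : X) ∈ Subgroup.centralizer ({y} : Set X)
      rw [Subgroup.mem_centralizer_iff]
      intro h hh
      rw [Set.mem_singleton_iff] at hh
      subst hh
      have := congrArg Subtype.val (t.2 ⟨h, Subgroup.mem_zpowers h⟩)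
      have h3 : h * (t.1 : X) * h⁻¹ = t.1 := this
      calc h * (t.1 : X) = (h * (t.1 : X) * h⁻¹) * h := by group
        _ = t.1 * h := by rw [h3]
    · rintro ⟨g, m, rfl⟩
      apply Subtype.ext
      show (y ^ m) * (t : X) * (y ^ m)⁻¹ = t
      have hc : y * (t : X) = t * y := by
        have := (Subgroup.mem_centralizer_iff.mp t.2.2) y rfl
        exact this
      have hc2 : Commute y (t : X) := hc
      have := (hc2.zpow_left m).eq
      rw [this]
      group
  rw [h2] at h1
  exact h1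

/-- Cancelling in a congruence between powers of a prime. -/
theorem pow_sub_modEq_one {r p a b : ℕ} (hr : r.Prime) (hp : p.Prime) (hrp : r ≠ p) (hab : b ≤ a)
    (h : r ^ a ≡ r ^ b [MOD p]) : r ^ (a - b) ≡ 1 [MOD p] := by
  have hc : Nat.gcd p (r ^ b) = 1 := by
    apply Nat.Coprime.pow_right
    exact (Nat.coprime_primes hp hr).mpr (Ne.symm hrp)
  have h2 : r ^ b * r ^ (a - b) ≡ r ^ b * 1 [MOD p] := by
    rw [← pow_add, mul_one, Nat.add_sub_cancel' hab]
    exact h
  exact Nat.ModEq.cancel_left_of_coprime hc h2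

end Cong

end Cfsg.Agent.Lib.Char.WinterQ
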