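import Cfsg.Agent.Lib.Char.WinterQ.Basic
import Cfsg.Agent.Lib.Char.Mackey
import Cfsg.Agent.Lib.Char.Extend
import Cfsg.Agent.Lib.Char.Degree
import Cfsg.Agent.Lib.Char.IndRep
import Mathlib

/-!
# Winter's theorem: the imprimitive step
-/

set_option autoImplicit false
set_option linter.style.haveILetI false
set_option linter.unusedVariables false
set_option linter.unusedSectionVars false
set_option linter.deprecated false

namespace Cfsg.Agent.Lib.Char.WinterQ

open Cfsg Cfsg.Agent.Lib.Solvable.Basic Cfsg.Agent.Lib.Solvable.Misc1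
open Cfsg.Agent.Lib.Char.Basic Cfsg.Agent.Lib.Char.Induced Cfsg.Agent.Lib.Char.IndRep
open Cfsg.Agent.Lib.Char.Mackey Cfsg.Agent.Lib.Char.Degree Cfsg.Agent.Lib.Char.Extend

universe u

section Core

theorem normal_of_sup_top {X : Type*} [Group X] {D N H : Subgroup X} (hs : H ⊔ N = ⊤)
    (hN : N ≤ Subgroup.normalizer (D : Set X)) (hH : H ≤ Subgroup.normalizer (D : Set X)) :
    D.Normal := by
  have h : (⊤ : Subgroup X) ≤ Subgroup.normalizer (D : Set X) := by
    rw [← hs]
    exact sup_le hH hN
  rwa [top_le_iff, Subgroup.normalizer_eq_top_iff] at h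

theorem corefree_step {X : Type*} [Group X] [Finite X] [Group.IsSolvable X] {p : ℕ}
    [hp : Fact p.Prime] {H : Subgroup X} (hH : IsCoatom H) (hcore : H.normalCore = ⊥) {y : X}
    (hy : PEl p y) (hy1 : y ≠ 1) :
    ∃ (r k c : ℕ), r.Prime ∧ H.index = r ^ k ∧ 1 ≤ k ∧
      (r = p ∨ (1 ≤ c ∧ c ≤ k ∧ r ^ c ≡ 1 [MOD p])) := by
  classical
  have hnt : Nontrivial X := ⟨⟨y, 1, hy1⟩⟩
  obtain ⟨N, hN⟩ := exists_isMinNormal (G := X)
  have hcomm := isMinNormal_comm hN
  obtain ⟨r, hr, hexp⟩ := isMinNormal_exponent hN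
  have hNn := hN.1
  have hN1 := hN.2.1
  have hNH : ¬ N ≤ H := by
    intro h
    apply hN1
    have := (Subgroup.normal_le_normalCore (N := N)).mpr h
    rw [hcore] at this
    exact le_bot_iff.mp this
  have hs : H ⊔ N = ⊤ := hH.2 _ (lt_of_le_of_ne le_sup_left (fun h => hNH (h ▸ le_sup_right)))
  have hinf : H ⊓ N = ⊥ := by
    have hn : (H ⊓ N).Normal := by
      refine normal_of_sup_top hs ?_ ?_
      · intro n hn
        rw [Subgroup.mem_normalizer_iff]
        intro x
        constructor
        · intro hx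
          have : n * x * n⁻¹ = x := by
            rw [hcomm n hn x hx.2]
            group
          rw [this]
          exact hx
        · intro hx
          have h2 : n * x * n⁻¹ ∈ N := hx.2
          have h3 : x ∈ N := by
            have := hNn.conj_mem _ h2 n⁻¹
            simpa [mul_assoc] using this
          have : n * x * n⁻¹ = x := by
            rw [hcomm n hn x h3]
            group
          rw [this] at hx
          exact hx
      · intro h hh
        rw [Subgroup.mem_normalizer_iff]
        intro x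
        constructor
        · intro hx
          exact ⟨H.mul_mem (H.mul_mem hh hx.1) (H.inv_mem hh), hNn.conj_mem _ hx.2 _⟩
        · intro hx
          have h1 : x ∈ H := by
            have := H.mul_mem (H.mul_mem (H.inv_mem hh) hx.1) hh
            simpa [mul_assoc] using this
          have h2 : x ∈ N := by
            have := hNn.conj_mem _ hx.2 h⁻¹
            simpa [mul_assoc] using this
          exact ⟨h1, h2⟩
    have := (Subgroup.normal_le_normalCore (N := H ⊓ N)).mpr inf_le_left
    rw [hcore] at this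
    exact le_bot_iff.mp this
  have hindex : H.index = Nat.card N := by
    have h1 : H.index = H.relIndex N := by
      rw [← relIndex_sup_eq, hs, Subgroup.relIndex_top_right]
    rw [h1, ← Subgroup.inf_relIndex_right, hinf, Subgroup.relIndex_bot_left]
  have hFr : Fact r.Prime := ⟨hr⟩
  have hNp : IsPGroup r N := by
    rintro ⟨x, hx⟩
    exact ⟨1, Subtype.ext (by simpa using hexp x hx)⟩
  obtain ⟨k, hk⟩ := IsPGroup.iff_card.mp hNp
  have hk1 : 1 ≤ k := by
    by_contra h
    have h0 : k = 0 := by omega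
    rw [h0, pow_zero, Subgroup.card_eq_one] at hk
    exact hN1 hk
  by_cases hrp : r = p
  · exact ⟨r, k, 1, hr, by rw [hindex, hk], hk1, Or.inl hrp⟩
  · -- `y` does not centralize `N`
    have hnc : N ⊓ Subgroup.centralizer ({y} : Set X) ≠ N := by
      intro heq
      have hyc : ∀ n ∈ N, n * y = y * n := by
        intro n hn
        have h1 : n ∈ N ⊓ Subgroup.centralizer ({y} : Set X) := by
          rw [heq]
          exact hn
        exact ((Subgroup.mem_centralizer_iff.mp h1.2) y rfl).symm
      have hy' : y ∈ H ⊔ N := by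
        rw [hs]
        trivial
      obtain ⟨h, hh, n, hn, hhn⟩ := Subgroup.mem_sup_of_normal_right.mp hy'
      have hcn : ∀ m ∈ N, m * h = h * m := by
        intro m hm
        have h1 : h = y * n⁻¹ := by
          rw [← hhn]
          group
        rw [h1]
        calc m * (y * n⁻¹) = (m * y) * n⁻¹ := by group
          _ = y * (m * n⁻¹) := by rw [hyc m hm]; group
          _ = y * (n⁻¹ * m) := by rw [hcomm m hm _ (N.inv_mem hn)]
          _ = y * n⁻¹ * m := by group
      -- the elements of `H` centralizing `N` form a normal subgroup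
      let D : Subgroup X := H ⊓ Subgroup.centralizer (N : Set X)
      have hDn : D.Normal := by
        refine normal_of_sup_top hs ?_ ?_
        · intro m hm
          rw [Subgroup.mem_normalizer_iff]
          intro x
          constructor
          · intro hx
            have h1 := (Subgroup.mem_centralizer_iff.mp hx.2) m hm
            have : m * x * m⁻¹ = x := by
              rw [h1]
              group
            rw [this]
            exact hx
          · intro hx
            have h0 : ∀ a ∈ N, a * (m * x * m⁻¹) = (m * x * m⁻¹) * a :=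
              fun a ha => (Subgroup.mem_centralizer_iff.mp hx.2) a ha
            have h1 : m * x = x * m := by
              have h2 := h0 m hm
              have h3 : m * (m * x * m⁻¹) = m * x * m⁻¹ * m := h2
              have h4 : m * (m * x) = m * x * m := by
                calc m * (m * x) = m * (m * x * m⁻¹) * m := by group
                  _ = m * x * m⁻¹ * m * m := by rw [h3]
                  _ = m * x * m := by group
              have h5 : m * (m * x) = m * (x * m) := by rw [h4]; group
              exact mul_left_cancel h5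
            have : m * x * m⁻¹ = x := by
              rw [h1]
              group
            rw [this] at hx
            exact hx
        · intro g hg
          rw [Subgroup.mem_normalizer_iff]
          intro x
          constructor
          · intro hx
            refine ⟨H.mul_mem (H.mul_mem hg hx.1) (H.inv_mem hg), ?_⟩
            refine Subgroup.mem_centralizer_iff.mpr ?_
            intro a ha
            have ha' : (a : X) ∈ N := ha
            have h1 : g⁻¹ * a * g ∈ N := by
              have := hNn.conj_mem _ ha' g⁻¹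
              simpa [mul_assoc] using this
            have h2 := (Subgroup.mem_centralizer_iff.mp hx.2) _ h1
            calc a * (g * x * g⁻¹) = g * ((g⁻¹ * a * g) * x) * g⁻¹ := by group
              _ = g * (x * (g⁻¹ * a * g)) * g⁻¹ := by rw [h2]
              _ = g * x * g⁻¹ * a := by group
          · intro hx
            refine ⟨?_, ?_⟩
            · have := H.mul_mem (H.mul_mem (H.inv_mem hg) hx.1) hg
              simpa [mul_assoc] using this
            · refine Subgroup.mem_centralizer_iff.mpr ?_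
              intro a ha
              have ha' : (a : X) ∈ N := ha
              have h1 : g * a * g⁻¹ ∈ N := hNn.conj_mem _ ha' g
              have h2 := (Subgroup.mem_centralizer_iff.mp hx.2) _ h1
              have h3 : g * (a * x) * g⁻¹ = g * (x * a) * g⁻¹ := by
                calc g * (a * x) * g⁻¹ = (g * a * g⁻¹) * (g * x * g⁻¹) := by group
                  _ = (g * x * g⁻¹) * (g * a * g⁻¹) := h2
                  _ = g * (x * a) * g⁻¹ := by group
              have h4 := mul_right_cancel h3
              exact mul_left_cancel h4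
      have hDle : D ≤ H.normalCore := (Subgroup.normal_le_normalCore (N := D)).mpr inf_le_left
      rw [hcore] at hDle
      have hh1 : h ∈ D := ⟨hh, Subgroup.mem_centralizer_iff.mpr (by
        intro a ha
        exact hcn a ha)⟩
      have hh2 : h = 1 := by
        have := hDle hh1
        rwa [Subgroup.mem_bot] at this
      have hyn : y ∈ N := by
        rw [← hhn, hh2, one_mul]
        exact hn
      have hyr := hexp y hyn
      obtain ⟨l, hl⟩ := hy
      have h1 : orderOf y ∣ r := orderOf_dvd_of_pow_eq_one hyr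
      have h2 : orderOf y ∣ p ^ l := orderOf_dvd_of_pow_eq_one hl
      have hco : Nat.Coprime r (p ^ l) :=
        Nat.Coprime.pow_right _ ((Nat.coprime_primes hr hp.out).mpr hrp)
      have h3 : orderOf y = 1 := Nat.eq_one_of_dvd_coprimes hco h1 h2
      exact hy1 (orderOf_eq_one_iff.mp h3)
    have hcong := card_modEq_centralizer N hNn hy
    have hle : N ⊓ Subgroup.centralizer ({y} : Set X) ≤ N := inf_le_left
    have hdvd : Nat.card ↥(N ⊓ Subgroup.centralizer ({y} : Set X)) ∣ r ^ k := by
      rw [← hk]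
      exact Subgroup.card_dvd_of_le hle
    obtain ⟨j, hjk, hj⟩ := (Nat.dvd_prime_pow hr).mp hdvd
    have hjne : j ≠ k := by
      rintro rfl
      apply hnc
      apply Subgroup.eq_of_le_of_card_ge hle
      rw [hk, hj]
    rw [hk, hj] at hcong
    refine ⟨r, k, k - j, hr, by rw [hindex, hk], hk1, Or.inr ⟨by omega, by omega, ?_⟩⟩
    exact pow_sub_modEq_one hr hp.out hrp hjk hcong

theorem core_step {G : Type*} [Group G] [Finite G] [Group.IsSolvable G] {p : ℕ} [hp : Fact p.Prime]
    {H : Subgroup G} (hH : IsCoatom H) {y : G} (hy : PEl p y) (hyC : y ∉ H.normalCore) :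
    ∃ (r k c : ℕ), r.Prime ∧ H.index = r ^ k ∧ 1 ≤ k ∧
      (r = p ∨ (1 ≤ c ∧ c ≤ k ∧ r ^ c ≡ 1 [MOD p])) := by
  set C := H.normalCore with hC
  have hCn : C.Normal := Subgroup.normalCore_normal H
  have hCH : C ≤ H := Subgroup.normalCore_le H
  let f := QuotientGroup.mk' C
  have hf : Function.Surjective f := QuotientGroup.mk'_surjective C
  have hco : IsCoatom (H.map f) := isCoatom_map_mk' hH hCH
  have hker : f.ker ≤ H := by
    rw [QuotientGroup.ker_mk']
    exact hCH
  have hcore : (H.map f).normalCore = ⊥ := by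
    have hn := Subgroup.normalCore_normal (H.map f)
    have h1 : ((H.map f).normalCore).comap f ≤ H := by
      intro x hx
      have h2 : f x ∈ H.map f := Subgroup.normalCore_le _ hx
      obtain ⟨z, hz, hzx⟩ := h2
      have h3 : z⁻¹ * x ∈ f.ker := by
        rw [MonoidHom.mem_ker, map_mul, map_inv, hzx, inv_mul_cancel]
      have h4 := H.mul_mem hz (hker h3)
      simpa using h4
    have h2 : ((H.map f).normalCore).comap f ≤ C :=
      (Subgroup.normal_le_normalCore (hN := hn.comap f)).mpr h1
    rw [eq_bot_iff]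
    intro x hx
    obtain ⟨z, rfl⟩ := hf x
    have h3 : z ∈ C := h2 hx
    rw [Subgroup.mem_bot]
    exact (QuotientGroup.eq_one_iff z).mpr h3
  have hy1 : f y ≠ 1 := fun h => hyC ((QuotientGroup.eq_one_iff y).mp h)
  obtain ⟨r, k, c, hr, hindex, hk, hrest⟩ := corefree_step hco hcore (PEl.map f hy) hy1
  refine ⟨r, k, c, hr, ?_, hk, hrest⟩
  rw [← hindex]
  exact (Subgroup.index_map_eq _ hf hker).symm

end Core

section NoQ

/-- No prime power divisor of `n` is congruent to `0, ±1` modulo `p`. -/
def NoQ (p n : ℕ) : Prop := ∀ q : ℕ, IsPrimePow q → q ∣ n →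
  ¬ ((q : ℤ) ≡ -1 [ZMOD p] ∨ (q : ℤ) ≡ 0 [ZMOD p] ∨ (q : ℤ) ≡ 1 [ZMOD p])

theorem NoQ.of_dvd {p n m : ℕ} (h : NoQ p n) (hd : m ∣ n) : NoQ p m :=
  fun q hq hqm => h q hq (hqm.trans hd)

theorem NoQ.not_dvd {p n : ℕ} (h : NoQ p n) (hp : p.Prime) : ¬ p ∣ n := by
  intro hd
  refine h p hp.isPrimePow hd (Or.inr (Or.inl ?_))
  exact (Int.modEq_zero_iff_dvd).mpr dvd_rfl

theorem NoQ.not_pow {p n r c : ℕ} (h : NoQ p n) (hr : r.Prime) (hc : 1 ≤ c) (hd : r ^ c ∣ n)
    (h1 : r ^ c ≡ 1 [MOD p]) : False := by
  refine h (r ^ c) ((isPrimePow_nat_iff _).mpr ⟨r, c, hr, hc, rfl⟩) hd (Or.inr (Or.inr ?_))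
  have := (Int.natCast_modEq_iff).mpr h1
  simpa using this

end NoQ

section Ind

variable {G : Type u} [Group G] [Fintype G]

/-- If `χ` is induced from a proper subgroup, it is induced from a maximal one. -/
theorem exists_coatom_ind {χ : G → ℂ} (hχ : IsIrrCharacter G χ)
    (hex : ∃ H : Subgroup G, H ≠ ⊤ ∧ ∃ θ : H → ℂ, IsCharacter H θ ∧ χ = indFun H θ) :
    ∃ H : Subgroup G, IsCoatom H ∧ ∃ θ : H → ℂ, IsIrrCharacter H θ ∧ χ = indFun H θ := by
  classical
  let S : Set (Subgroup G) := {H | H ≠ ⊤ ∧ ∃ θ : H → ℂ, IsCharacter H θ ∧ χ = indFun H θ}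
  have hwf : WellFoundedGT (Subgroup G) := inferInstance
  obtain ⟨H, hHS, hmax⟩ := hwf.wf.has_min S hex
  obtain ⟨hne, θ, hθ, he⟩ := hHS
  refine ⟨H, ⟨hne, ?_⟩, θ, ?_, he⟩
  · intro M hM
    by_contra hMt
    apply hmax M ?_ hM
    refine ⟨hMt, ?_⟩
    have hHM : H ≤ M := hM.le
    haveI : Fintype M := Fintype.ofFinite _
    let f : ↥(H.subgroupOf M) →* H := (Subgroup.subgroupOfEquivOfLe hHM).toMonoidHom
    have hc : IsCharacter ↥(H.subgroupOf M)
        (fun x => θ ⟨(x : M), Subgroup.mem_subgroupOf.mp x.2⟩) := isCharacter_comp f hθ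
    refine ⟨_, isCharacter_indFun (H.subgroupOf M) hc, ?_⟩
    rw [he]
    exact (indFun_indFun H M hHM θ).symm
  · haveI : Fintype H := Fintype.ofFinite _
    apply isIrr_of_indFun_isIrr H hθ
    rw [← he]
    exact hχ

/-- An element all of whose conjugates lie in the kernel of `ψ` lies in the kernel of the induced
character. -/
theorem indFun_eq_of_forall_ker (H : Subgroup G) (ψ : H → ℂ) {z : G}
    (h : ∀ g : G, ∃ hm : g⁻¹ * z * g ∈ H, ψ ⟨g⁻¹ * z * g, hm⟩ = ψ 1) :
    indFun H ψ z = indFun H ψ 1 := by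
  rw [indFun_apply, indFun_apply]
  congr 1
  refine Finset.sum_congr rfl fun g _ => ?_
  obtain ⟨hm, he⟩ := h g
  rw [extendByZero_of_mem H ψ hm]
  have h1 : g⁻¹ * 1 * g ∈ H := by simp [H.one_mem]
  rw [extendByZero_of_mem H ψ h1, he]
  congr 1
  apply Subtype.ext
  simp

end Ind

section Step

variable {G : Type u} [Group G] [Fintype G] {p : ℕ} [hp : Fact p.Prime]

/-- The inductive step for imprimitive characters. -/
theorem imprim_closed
    (IH : ∀ (K : Type u) [Group K] [Finite K], Nat.card K < Nat.card G → Group.IsSolvable K →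
      ∀ φ : K → ℂ, IsIrrCharacter K φ → (∀ g, φ g = φ 1 → g = 1) → NoQ p (charDegree φ) →
        PClosed p K)
    (hsolv : Group.IsSolvable G) {χ : G → ℂ} (hχ : IsIrrCharacter G χ)
    (hfaith : ∀ g, χ g = χ 1 → g = 1) (hNoQ : NoQ p (charDegree χ))
    (hex : ∃ H : Subgroup G, H ≠ ⊤ ∧ ∃ θ : H → ℂ, IsCharacter H θ ∧ χ = indFun H θ) :
    PClosed p G := by
  classical
  obtain ⟨H, hH, ψ, hψ, he⟩ := exists_coatom_ind hχ hex
  have hψc := isCharacter_of_isIrrCharacter hψ
  obtain ⟨d, hd⟩ := exists_deg_of_isCharacter hψc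
  have hdeg : charDegree χ = H.index * d := by
    apply charDegree_eq_of_eq_natCast
    rw [he, indFun_one, hd]
    push_cast
    rfl
  have hindex_dvd : H.index ∣ charDegree χ := ⟨d, hdeg⟩
  have hd_dvd : d ∣ charDegree χ := ⟨H.index, by rw [hdeg, mul_comm]⟩
  have hdψ : charDegree ψ = d := charDegree_eq_of_eq_natCast hd
  -- all `p`-elements are in the core
  have hcore : ∀ y : G, PEl p y → y ∈ H.normalCore := by
    intro y hy
    by_contra hyC
    obtain ⟨r, k, c, hr, hindex, hk, hrest⟩ := core_step hH hy hyC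
    rcases hrest with rfl | ⟨hc1, hck, hc⟩
    · apply hNoQ.not_dvd hr
      apply dvd_trans _ hindex_dvd
      rw [hindex]
      exact dvd_pow_self _ (by omega)
    · apply hNoQ.not_pow hr hc1 _ hc
      apply dvd_trans _ hindex_dvd
      rw [hindex]
      exact pow_dvd_pow _ hck
  -- the kernel of `ψ`
  set K := charKer hψc with hK
  have hKn : K.Normal := charKer_normal hψc
  obtain ⟨φ, hφc, hφe⟩ := exists_quotient_character hψc
  have hφi : IsIrrCharacter (↥H ⧸ K) φ := by
    refine isIrrCharacter_of_comp_isIrr (QuotientGroup.mk' K) hφc ?_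
    have : φ ∘ (QuotientGroup.mk' K) = ψ := by
      funext h
      exact (congrFun hφe h).symm
    rw [this]
    exact hψ
  have hφapp : ∀ h : H, φ (h : ↥H ⧸ K) = ψ h := fun h => (congrFun hφe h).symm
  have hφf : ∀ g, φ g = φ 1 → g = 1 := by
    intro g hg
    induction g using QuotientGroup.induction_on with
    | H h =>
      have h1 : φ ((1 : H) : ↥H ⧸ K) = ψ 1 := hφapp 1
      have h2 : ψ h = ψ 1 := by
        rw [← hφapp h, ← h1]
        exact hg
      exact (QuotientGroup.eq_one_iff h).mpr h2
  have hφd : charDegree φ = d := by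
    apply charDegree_eq_of_eq_natCast
    have h1 : φ ((1 : H) : ↥H ⧸ K) = ψ 1 := hφapp 1
    have h2 : φ 1 = ψ 1 := h1
    rw [h2, hd]
  have hcardlt : Nat.card (↥H ⧸ K) < Nat.card G := by
    have h1 : Nat.card (↥H ⧸ K) ≤ Nat.card H := by
      have := Subgroup.card_eq_card_quotient_mul_card_subgroup K
      rw [this]
      exact Nat.le_mul_of_pos_right _ Nat.card_pos
    have h2 : Nat.card H < Nat.card G := by
      have h3 := Subgroup.card_mul_index H
      have h4 : 2 ≤ H.index := by
        have h5 : H.index ≠ 0 := Subgroup.index_ne_zero_of_finite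
        have h6 : H.index ≠ 1 := fun h => hH.1 (Subgroup.index_eq_one.mp h)
        omega
      have h7 : 0 < Nat.card H := Nat.card_pos
      nlinarith
    omega
  have hsH : Group.IsSolvable H := by infer_instance
  have hsQ : Group.IsSolvable (↥H ⧸ K) := by infer_instance
  have hclosed : PClosed p (↥H ⧸ K) :=
    IH _ hcardlt hsQ φ hφi hφf (by rw [hφd]; exact hNoQ.of_dvd hd_dvd)
  -- the conclusion
  intro x y hx hy
  have hCn := Subgroup.normalCore_normal H
  have hCH := Subgroup.normalCore_le H
  have hxC := hcore x hx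
  have hyC := hcore y hy
  have hconj : ∀ g : G, ∃ k : ℕ, ∃ hm : g⁻¹ * (x * y) * g ∈ H,
      ψ (⟨g⁻¹ * (x * y) * g, hm⟩ ^ p ^ k) = ψ 1 := by
    intro g
    have hxg : g⁻¹ * x * g ∈ H := hCH (by
      have := hCn.conj_mem _ hxC g⁻¹
      simpa using this)
    have hyg : g⁻¹ * y * g ∈ H := hCH (by
      have := hCn.conj_mem _ hyC g⁻¹
      simpa using this)
    have hm : g⁻¹ * (x * y) * g ∈ H := by
      have := H.mul_mem hxg hyg
      simpa [mul_assoc] using this
    have hx1 : PEl p (⟨g⁻¹ * x * g, hxg⟩ : H) := by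
      obtain ⟨l, hl⟩ := hx
      refine ⟨l, Subtype.ext ?_⟩
      show (g⁻¹ * x * g) ^ p ^ l = 1
      have := conj_pow (a := g⁻¹) (b := x) (i := p ^ l)
      rw [inv_inv] at this
      rw [this, hl]
      simp
    have hy1 : PEl p (⟨g⁻¹ * y * g, hyg⟩ : H) := by
      obtain ⟨l, hl⟩ := hy
      refine ⟨l, Subtype.ext ?_⟩
      show (g⁻¹ * y * g) ^ p ^ l = 1
      have := conj_pow (a := g⁻¹) (b := y) (i := p ^ l)
      rw [inv_inv] at this
      rw [this, hl]
      simp
    obtain ⟨k, hk⟩ := hclosed _ _ (PEl.map (QuotientGroup.mk' K) hx1) (PEl.map (QuotientGroup.mk' K) hy1)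
    refine ⟨k, hm, ?_⟩
    have h3 : (⟨g⁻¹ * (x * y) * g, hm⟩ : H) = ⟨g⁻¹ * x * g, hxg⟩ * ⟨g⁻¹ * y * g, hyg⟩ := by
      apply Subtype.ext
      show g⁻¹ * (x * y) * g = g⁻¹ * x * g * (g⁻¹ * y * g)
      group
    rw [h3]
    rw [← map_mul, ← map_pow] at hk
    exact (QuotientGroup.eq_one_iff _).mp hk
  choose k hm hk using hconj
  let N : ℕ := ∑ g : G, k g
  have hkN : ∀ g, k g ≤ N := fun g =>
    Finset.single_le_sum (f := k) (fun _ _ => Nat.zero_le _) (Finset.mem_univ g)
  refine ⟨N, ?_⟩
  apply hfaith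
  rw [he]
  apply indFun_eq_of_forall_ker
  intro g
  have hm1 : g⁻¹ * (x * y) ^ p ^ N * g = (g⁻¹ * (x * y) * g) ^ p ^ N := by
    have := conj_pow (a := g⁻¹) (b := x * y) (i := p ^ N)
    rw [inv_inv] at this
    exact this.symm
  have hm2 : (g⁻¹ * (x * y) * g) ^ p ^ N ∈ H := H.pow_mem (hm g) _
  refine ⟨by rw [hm1]; exact hm2, ?_⟩
  have hker : (⟨g⁻¹ * (x * y) * g, hm g⟩ : H) ^ p ^ k g ∈ K := hk g
  obtain ⟨j, hj⟩ := Nat.exists_eq_add_of_le (hkN g)
  have h5 : (⟨g⁻¹ * (x * y) * g, hm g⟩ : H) ^ p ^ N ∈ K := by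
    rw [hj, pow_add, pow_mul]
    exact K.pow_mem hker _
  have h6 : (⟨g⁻¹ * (x * y) ^ p ^ N * g, by rw [hm1]; exact hm2⟩ : H) =
      (⟨g⁻¹ * (x * y) * g, hm g⟩ : H) ^ p ^ N := by
    apply Subtype.ext
    rw [Subgroup.coe_pow]
    exact hm1
  rw [h6]
  exact h5

end Step

end Cfsg.Agent.Lib.Char.WinterQ
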