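import Cfsg.Agent.Lib.Char.WinterQ.Imprim
import Cfsg.Agent.Lib.Char.CliffordCorr
import Cfsg.Agent.Lib.OddChar.CentralBound
import Cfsg.Agent.Lib.Char.Central
import Cfsg.Agent.Lib.Char.Eigen
import Cfsg.Agent.Lib.Char.Linear
import Cfsg.Agent.Lib.Coprime.Action
import Cfsg.Agent.Lib.Core.Basic
import Mathlib

/-!
# Winter's theorem: the primitive step
-/

set_option autoImplicit false
set_option linter.style.haveILetI false
set_option linter.unusedVariables false
set_option linter.unusedSectionVars false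
set_option linter.deprecated false

namespace Cfsg.Agent.Lib.Char.WinterQ

open Cfsg Module
open Cfsg.Agent.Lib.Char.Basic Cfsg.Agent.Lib.Char.Induced Cfsg.Agent.Lib.Char.IndRep
open Cfsg.Agent.Lib.Char.Degree Cfsg.Agent.Lib.Char.Extend Cfsg.Agent.Lib.Char.Ortho
open Cfsg.Agent.Lib.Char.Conj Cfsg.Agent.Lib.Char.Clifford Cfsg.Agent.Lib.Char.CliffordCorr
open Cfsg.Agent.Lib.OddChar.CentralBound Cfsg.Agent.Lib.Char.Linear Cfsg.Agent.Lib.Char.Central
open scoped ComplexConjugate

universe u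

section Class2

/-- A central element acts by a scalar of norm one. -/
theorem exists_scalar_of_center {X : Type*} [Group X] [Finite X] {m : ℕ}
    (σ : Representation ℂ X (Fin m → ℂ)) [σ.IsIrreducible] {z : X} (hz : z ∈ Subgroup.center X) :
    ∃ ω : ℂ, σ z = ω • (1 : End ℂ (Fin m → ℂ)) ∧ ‖ω‖ = 1 := by
  obtain ⟨ω, hω⟩ := center_acts_scalar σ z hz
  refine ⟨ω, hω, ?_⟩
  have hnt := nontrivial_of_irreducible σ
  obtain ⟨v, hv⟩ := exists_ne (0 : Fin m → ℂ)
  have h1 : (σ z) ^ orderOf z = 1 := Eigen.rep_pow_orderOf σ z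
  have h2 : σ z v = ω • v := by
    rw [hω]
    simp
  have h3 := Eigen.pow_apply_of_eigenbasis h2 (orderOf z)
  rw [h1, Module.End.one_apply] at h3
  have h4 : (ω ^ orderOf z - 1) • v = 0 := by
    rw [sub_smul, one_smul, ← h3, sub_self]
  have h5 : ω ^ orderOf z = 1 := by
    rcases smul_eq_zero.mp h4 with h6 | h6
    · exact sub_eq_zero.mp h6
    · exact absurd h6 hv
  exact Eigen.norm_eq_one_of_pow_eq_one (orderOf_pos z).ne' h5

/-- A character with central commutators which is faithful on the centre: `|X : Z(X)| = θ(1)²`. -/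
theorem class2_index {X : Type*} [Group X] [Fintype X] {θ : X → ℂ} (hθ : IsIrrCharacter X θ)
    (hc : ∀ a b : X, a * b * a⁻¹ * b⁻¹ ∈ Subgroup.center X)
    (hf : ∀ z ∈ Subgroup.center X, θ z = θ 1 → z = 1) :
    (Subgroup.center X).index = charDegree θ ^ 2 := by
  classical
  obtain ⟨m, σ, hσ, rfl⟩ := hθ
  haveI := hσ
  have hdeg : charDegree σ.character = m := by
    rw [charDegree_character]
    simp
  rw [hdeg]
  have hmul : ∀ z ∈ Subgroup.center X, ∀ (ω : ℂ), σ z = ω • (1 : End ℂ (Fin m → ℂ)) → ∀ x : X,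
      σ.character (z * x) = ω * σ.character x := by
    intro z hz ω hω x
    simp only [Representation.character, map_mul, hω]
    rw [smul_mul_assoc, one_mul, map_smul, smul_eq_mul]
  have hone : σ.character 1 = (m : ℂ) := by
    simp [Representation.character]
  -- vanishing off the centre
  have hvan : ∀ x : X, x ∉ Subgroup.center X → σ.character x = 0 := by
    intro x hx
    rw [Subgroup.mem_center_iff] at hx
    push Not at hx
    obtain ⟨w, hw⟩ := hx
    set c := w * x * w⁻¹ * x⁻¹ with hcdef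
    have hcc : c ∈ Subgroup.center X := hc w x
    have hc1 : c ≠ 1 := by
      intro h
      apply hw
      have h1 : w * x * w⁻¹ * x⁻¹ * (x * w) = x * w := by rw [← hcdef, h, one_mul]
      have h2 : w * x * w⁻¹ * x⁻¹ * (x * w) = w * x := by group
      rw [h2] at h1
      exact h1
    obtain ⟨ω, hω, -⟩ := exists_scalar_of_center σ hcc
    have h1 : σ.character x = ω * σ.character x := by
      have h2 : c * x = w * x * w⁻¹ := by
        rw [hcdef]
        group
      rw [← hmul c hcc ω hω x, h2]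
      exact (isClassFunction_of_isCharacter (isCharacter_of_rep σ) x w).symm
    by_contra hne
    have hω1 : ω = 1 := by
      have h3 : (ω - 1) * σ.character x = 0 := by
        rw [sub_mul, one_mul, ← h1, sub_self]
      rcases mul_eq_zero.mp h3 with h4 | h4
      · exact sub_eq_zero.mp h4
      · exact absurd h4 hne
    apply hc1
    apply hf c hcc
    simp only [Representation.character, hω, hω1, one_smul, map_one]
  -- the norm
  have hnorm := classInner_self_of_isIrr (isIrrCharacter_of_irrep σ hσ)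
  rw [classInner_self_eq] at hnorm
  have hnorm' : ((Nat.card X : ℝ)⁻¹ * ∑ g, ‖σ.character g‖ ^ 2 : ℝ) = 1 := by
    exact_mod_cast hnorm
  have hsum : ∑ g : X, ‖σ.character g‖ ^ 2 = ((Nat.card (Subgroup.center X) : ℕ) : ℝ) * (m : ℝ) ^ 2 := by
    have h1 : ∀ g : X, ‖σ.character g‖ ^ 2 = if g ∈ Subgroup.center X then (m : ℝ) ^ 2 else 0 := by
      intro g
      split_ifs with hg
      · obtain ⟨ω, hω, hn⟩ := exists_scalar_of_center σ hg
        have h2 : σ.character g = ω * (m : ℂ) := by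
          have h3 := hmul g hg ω hω 1
          rw [mul_one, hone] at h3
          exact h3
        rw [h2, norm_mul, hn, one_mul]
        simp
      · rw [hvan g hg]
        simp
    simp only [h1]
    rw [Finset.sum_ite, Finset.sum_const, Finset.sum_const_zero, add_zero, nsmul_eq_mul]
    congr 1
    rw [Nat.card_eq_fintype_card, Fintype.card_subtype]
  rw [hsum] at hnorm'
  have hZ := Subgroup.card_mul_index (Subgroup.center X)
  have hXpos : (0 : ℝ) < Nat.card X := by exact_mod_cast Nat.card_pos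
  have h2 : ((Nat.card (Subgroup.center X) : ℕ) : ℝ) * (m : ℝ) ^ 2 = Nat.card X := by
    field_simp at hnorm'
    linarith
  have h3 : Nat.card (Subgroup.center X) * m ^ 2 = Nat.card (Subgroup.center X) *
      (Subgroup.center X).index := by
    rw [hZ]
    exact_mod_cast h2
  exact (Nat.eq_of_mul_eq_mul_left Nat.card_pos h3).symm

end Class2

section Prim

variable {G : Type u} [Group G] [Fintype G]

/-- `χ` is primitive. -/
def Prim (χ : G → ℂ) : Prop :=
  ∀ H : Subgroup G, H ≠ ⊤ → ∀ θ : H → ℂ, IsCharacter H θ → χ ≠ indFun H θ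

theorem homog {χ : G → ℂ} (hχ : IsIrrCharacter G χ) (hprim : Prim χ) (N : Subgroup G)
    (hN : N.Normal) :
    ∃ (θ : N → ℂ) (e : ℕ), IsIrrCharacter N θ ∧ e ≠ 0 ∧ ∀ n : N, χ n = e * θ n := by
  classical
  haveI : Fintype N := Fintype.ofFinite _
  have hχc := isCharacter_of_isIrrCharacter hχ
  have hres := isCharacter_restrict N hχc
  have hres0 : (fun n : N => χ n) ≠ 0 := by
    intro h
    have h1 := congrFun h 1
    exact Cfsg.Agent.Lib.Char.Complete.irr_one_ne_zero hχ (by simpa using h1)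
  obtain ⟨θ, hθ, hcon⟩ := exists_irr_constituent (isClassFunction_of_isCharacter hres) hres0
  haveI : Fintype (inertia hN θ) := Fintype.ofFinite _
  have hinv : inertia hN θ = ⊤ := by
    by_contra hne
    obtain ⟨ψ, hψ, hψe, -⟩ := exists_irr_inertia_of_lies_over hN
      (le_inertia hN (isClassFunction_of_isIrrCharacter hθ)) hθ rfl hχ hcon
    exact hprim _ hne ψ (isCharacter_of_isIrrCharacter hψ) hψe.symm
  have hall : ∀ c : G, conjOn hN c θ = θ := by
    intro c
    have : c ∈ inertia hN θ := by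
      rw [hinv]
      trivial
    exact this
  have h := restrict_eq_smul hN hχ hθ hall hcon
  obtain ⟨e, he⟩ := exists_nat_classInner hres (isCharacter_of_isIrrCharacter hθ)
  refine ⟨θ, e, hθ, ?_, ?_⟩
  · rintro rfl
    apply hcon
    rw [he]
    simp
  · intro n
    have := congrFun h n
    rw [he] at this
    simpa using this

theorem abelian_central {χ : G → ℂ} (hχ : IsIrrCharacter G χ) (hfaith : ∀ g, χ g = χ 1 → g = 1)
    (hprim : Prim χ) (A : Subgroup G) (hA : A.Normal) (hcomm : ∀ a ∈ A, ∀ b ∈ A, a * b = b * a) :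
    ∀ a ∈ A, ∀ g : G, g * a = a * g := by
  classical
  obtain ⟨θ, e, hθ, he, happ⟩ := homog hχ hprim A hA
  haveI : Fintype A := Fintype.ofFinite _
  have h1 : θ 1 = 1 := isIrr_deg_one_of_comm (fun a b => Subtype.ext (hcomm a a.2 b b.2)) hθ
  obtain ⟨lam, hlam⟩ := exists_hom_of_deg_one (isCharacter_of_isIrrCharacter hθ) h1
  intro a ha g
  have hχc := isClassFunction_of_isCharacter (isCharacter_of_isIrrCharacter hχ)
  have hconj : g * a * g⁻¹ ∈ A := hA.conj_mem a ha g
  have h2 : θ ⟨g * a * g⁻¹, hconj⟩ = θ ⟨a, ha⟩ := by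
    have h3 := happ ⟨g * a * g⁻¹, hconj⟩
    have h4 := happ ⟨a, ha⟩
    have h5 : χ (g * a * g⁻¹) = χ a := hχc a g
    have he' : (e : ℂ) ≠ 0 := by exact_mod_cast he
    apply mul_left_cancel₀ he'
    rw [← h3, ← h4]
    exact h5
  have h3 : lam ⟨g * a * g⁻¹, hconj⟩ = lam ⟨a, ha⟩ := by
    apply Units.ext
    have h4 := h2
    rw [hlam] at h4
    exact h4
  set c : A := ⟨g * a * g⁻¹, hconj⟩ * (⟨a, ha⟩ : A)⁻¹ with hc
  have h4 : lam c = 1 := by
    rw [hc, map_mul, map_inv, h3, mul_inv_cancel]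
  have h5 : θ c = θ 1 := by
    rw [hlam]
    simp [h4]
  have h6 : χ (c : G) = χ 1 := by
    have h7 := happ c
    have h8 := happ 1
    have h9 : ((1 : A) : G) = 1 := rfl
    rw [h9] at h8
    rw [h7, h8, h5]
  have h7 := hfaith _ h6
  have h8 : g * a * g⁻¹ * a⁻¹ = 1 := by
    simpa [hc] using h7
  have h9 : g * a * g⁻¹ = a := by
    have := congrArg (· * a) h8
    simpa using this
  calc g * a = g * a * g⁻¹ * g := by group
    _ = a * g := by rw [h9]

theorem pcore_central {p : ℕ} [hp : Fact p.Prime] {χ : G → ℂ} (hχ : IsIrrCharacter G χ)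
    (hfaith : ∀ g, χ g = χ 1 → g = 1) (hprim : Prim χ) (hn : ¬ p ∣ charDegree χ) :
    ∀ a ∈ pCore p G, ∀ g : G, g * a = a * g := by
  classical
  have hRn : (pCore p G).Normal := inferInstance
  apply abelian_central hχ hfaith hprim _ hRn
  obtain ⟨θ, e, hθ, he, happ⟩ := homog hχ hprim _ hRn
  haveI : Fintype (pCore p G) := Fintype.ofFinite _
  have hdeg1 : χ 1 = e * θ 1 := by
    have := happ 1
    simpa using this
  obtain ⟨d, hd⟩ := exists_deg_of_isCharacter (isCharacter_of_isIrrCharacter hθ)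
  have hdn : charDegree χ = e * d := by
    apply charDegree_eq_of_eq_natCast
    rw [hdeg1, hd]
    push_cast
    rfl
  have hdθ : charDegree θ = d := charDegree_eq_of_eq_natCast hd
  have hd1 : d = 1 := by
    have h1 : d ∣ Nat.card (pCore p G) := by
      rw [← hdθ]
      exact charDegree_dvd_card hθ
    obtain ⟨k, hk⟩ := IsPGroup.iff_card.mp (Cfsg.Agent.Lib.Core.Basic.pCore_isPGroup (p := p) (G := G))
    rw [hk] at h1
    obtain ⟨j, -, hj⟩ := (Nat.dvd_prime_pow hp.out).mp h1
    rcases Nat.eq_zero_or_pos j with rfl | hj0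
    · simpa using hj
    · exfalso
      apply hn
      rw [hdn, hj]
      exact dvd_mul_of_dvd_right (dvd_pow_self _ hj0.ne') _
  have h1 : θ 1 = 1 := by
    rw [hd, hd1]
    simp
  obtain ⟨lam, hlam⟩ := exists_hom_of_deg_one (isCharacter_of_isIrrCharacter hθ) h1
  intro a ha b hb
  have hc : lam (⟨a, ha⟩ * ⟨b, hb⟩ * (⟨a, ha⟩ : pCore p G)⁻¹ * (⟨b, hb⟩ : pCore p G)⁻¹) = 1 := by
    simp only [map_mul, map_inv]
    rw [mul_comm (lam ⟨a, ha⟩)]
    simp
  set c : pCore p G := ⟨a, ha⟩ * ⟨b, hb⟩ * (⟨a, ha⟩ : pCore p G)⁻¹ * (⟨b, hb⟩ : pCore p G)⁻¹ with hcdef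
  have h5 : θ c = θ 1 := by
    rw [hlam]
    simp [hc]
  have h6 : χ (c : G) = χ 1 := by
    have h7 := happ c
    have h8 := happ 1
    have h9 : ((1 : pCore p G) : G) = 1 := rfl
    rw [h9] at h8
    rw [h7, h8, h5]
  have h7 := hfaith _ h6
  have h8 : a * b * a⁻¹ * b⁻¹ = 1 := by
    simpa [hcdef] using h7
  have h9 : a * b * a⁻¹ = b := by
    have := congrArg (· * b) h8
    simpa using this
  calc a * b = a * b * a⁻¹ * a := by group
    _ = b * a := by rw [h9]

/-- The critical configuration. -/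
theorem crit_step {p : ℕ} [hp : Fact p.Prime] (hsolv : Group.IsSolvable G) {χ : G → ℂ}
    (hχ : IsIrrCharacter G χ) (hfaith : ∀ g, χ g = χ 1 → g = 1) (hprim : Prim χ)
    (hNoQ : NoQ p (charDegree χ)) {r : ℕ} (hr : r.Prime) (hrp : r ≠ p) {y : G} (hy : PEl p y)
    {T : Subgroup G} (hTn : T.Normal) (hTr : IsPGroup r T) (hyT : ¬ ∀ t ∈ T, y * t = t * y)
    (hmin : ∀ U : Subgroup G, U.Normal → IsPGroup r U → U < T → ∀ u ∈ U, y * u = u * y) : False := by
  classical
  have hFr : Fact r.Prime := ⟨hr⟩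
  obtain ⟨χρn, ρ, hρ, hρc⟩ := hχ
  subst hρc
  haveI := hρ
  have hχ : IsIrrCharacter G ρ.character := ⟨χρn, ρ, hρ, rfl⟩
  set χ := ρ.character with hχdef
  have hχc := isCharacter_of_isIrrCharacter hχ
  -- the coprime lemma
  have hfix : ∀ t c : G, c ∈ T → y * t * y⁻¹ = t * c → y * c = c * y → c = 1 := by
    intro t c hcT h1 h2
    obtain ⟨k, hk⟩ := hy
    have h3 : ∀ j : ℕ, y ^ j * t * (y ^ j)⁻¹ = t * c ^ j := by
      intro j
      induction j with
      | zero => simp
      | succ j ih =>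
        have hcomm : Commute y c := h2
        calc y ^ (j + 1) * t * (y ^ (j + 1))⁻¹ = y * (y ^ j * t * (y ^ j)⁻¹) * y⁻¹ := by
              rw [pow_succ']
              group
          _ = y * (t * c ^ j) * y⁻¹ := by rw [ih]
          _ = (y * t * y⁻¹) * (y * c ^ j * y⁻¹) := by group
          _ = t * c * (y * c ^ j * y⁻¹) := by rw [h1]
          _ = t * c * c ^ j := by
              have := (hcomm.pow_right j).eq
              rw [this]
              group
          _ = t * c ^ (j + 1) := by rw [pow_succ']; group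
    have h4 := h3 (p ^ k)
    rw [hk] at h4
    simp only [one_mul, inv_one, mul_one] at h4
    have h5 : c ^ p ^ k = 1 := by
      have := mul_left_cancel (a := t) (b := 1) (c := c ^ p ^ k) (by rw [mul_one]; exact h4)
      exact this.symm
    obtain ⟨j, hj⟩ := hTr ⟨c, hcT⟩
    have h6 : c ^ r ^ j = 1 := by
      have := congrArg Subtype.val hj
      simpa using this
    have hco : Nat.Coprime (r ^ j) (p ^ k) :=
      Nat.Coprime.pow _ _ ((Nat.coprime_primes hr hp.out).mpr hrp)
    have h7 : orderOf c = 1 :=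
      Nat.eq_one_of_dvd_coprimes hco (orderOf_dvd_of_pow_eq_one h6) (orderOf_dvd_of_pow_eq_one h5)
    exact orderOf_eq_one_iff.mp h7
  -- the derived subgroup is centralized by `y`
  have hT1 : T ≠ ⊥ := by
    rintro rfl
    apply hyT
    intro t ht
    rw [Subgroup.mem_bot] at ht
    simp [ht]
  set D := ⁅T, T⁆ with hD
  have hDn : D.Normal := Subgroup.commutator_normal T T
  have hDlt : D < T := Group.IsSolvable.commutator_lt_of_ne_bot hT1
  have hDr : IsPGroup r D := hTr.to_le hDlt.le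
  have hyD : ∀ d ∈ D, y * d = d * y := hmin D hDn hDr hDlt
  -- `D` is central in `T`
  have hTcD : ∀ t ∈ T, ∀ d ∈ D, t * d = d * t := by
    set W := T ⊓ Subgroup.centralizer (D : Set G) with hW
    haveI := hDn
    have hcn : (Subgroup.centralizer (D : Set G)).Normal := Subgroup.normal_centralizer
    have hWn : W.Normal := Subgroup.normal_inf_normal _ _
    by_cases hWT : W = T
    · intro t ht d hd
      have h1 : t ∈ W := by rw [hWT]; exact ht
      exact ((Subgroup.mem_centralizer_iff.mp h1.2) d hd).symm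
    · exfalso
      have hWlt : W < T := lt_of_le_of_ne inf_le_left hWT
      have hyW := hmin W hWn (hTr.to_le hWlt.le) hWlt
      apply hyT
      intro t ht
      set c := t⁻¹ * (y * t * y⁻¹) with hc
      have hcT : c ∈ T := T.mul_mem (T.inv_mem ht) (hTn.conj_mem t ht y)
      have hcC : c ∈ Subgroup.centralizer (D : Set G) := by
        refine Subgroup.mem_centralizer_iff.mpr ?_
        intro d hd
        have hd' : d ∈ D := hd
        have hyd : y⁻¹ * d * y = d := by
          rw [mul_assoc, ← hyD d hd']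
          group
        have htd : t * d * t⁻¹ ∈ D := hDn.conj_mem d hd' t
        have hytd : y * (t * d * t⁻¹) * y⁻¹ = t * d * t⁻¹ := by
          rw [hyD _ htd]
          group
        have h1 : (y * t * y⁻¹) * d * (y * t * y⁻¹)⁻¹ = t * d * t⁻¹ := by
          calc (y * t * y⁻¹) * d * (y * t * y⁻¹)⁻¹ = y * (t * (y⁻¹ * d * y) * t⁻¹) * y⁻¹ := by group
            _ = y * (t * d * t⁻¹) * y⁻¹ := by rw [hyd]
            _ = t * d * t⁻¹ := hytd
        have h2 : y * t * y⁻¹ = t * c := by
          rw [hc]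
          group
        rw [h2] at h1
        have h3 : c * d * c⁻¹ = d := by
          have h4 : t * (c * d * c⁻¹) * t⁻¹ = t * d * t⁻¹ := by
            rw [← h1]
            group
          have h5 := mul_right_cancel h4
          exact mul_left_cancel h5
        calc d * c = c * d * c⁻¹ * c := by rw [h3]
          _ = c * d := by group
      have hcW : c ∈ W := ⟨hcT, hcC⟩
      have h1 : c = 1 := hfix t c hcT (by rw [hc]; group) (hyW c hcW)
      have h2 : y * t * y⁻¹ = t := by
        have : t⁻¹ * (y * t * y⁻¹) = 1 := h1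
        calc y * t * y⁻¹ = t * (t⁻¹ * (y * t * y⁻¹)) := by group
          _ = t := by rw [this, mul_one]
      calc y * t = y * t * y⁻¹ * y := by group
        _ = t * y := by rw [h2]
  -- the centre of `T` is central in `G`
  set Z := T ⊓ Subgroup.centralizer (T : Set G) with hZ
  have hZn : Z.Normal := by
    haveI := hTn
    have : (Subgroup.centralizer (T : Set G)).Normal := Subgroup.normal_centralizer
    exact Subgroup.normal_inf_normal _ _
  have hZcomm : ∀ a ∈ Z, ∀ b ∈ Z, a * b = b * a := by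
    intro a ha b hb
    exact ((Subgroup.mem_centralizer_iff.mp hb.2) a ha.1)
  have hZc : ∀ a ∈ Z, ∀ g : G, g * a = a * g :=
    abelian_central hχ hfaith hprim Z hZn hZcomm
  have hcommZ : ∀ a ∈ T, ∀ b ∈ T, a * b * a⁻¹ * b⁻¹ ∈ Z := by
    intro a ha b hb
    have hd : a * b * a⁻¹ * b⁻¹ ∈ D := by
      have := Subgroup.commutator_mem_commutator ha hb
      rwa [commutatorElement_def] at this
    refine ⟨hDlt.le hd, Subgroup.mem_centralizer_iff.mpr ?_⟩
    intro t ht
    exact hTcD t ht _ hd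
  -- the subgroup of fixed points
  set T₀ := T ⊓ Subgroup.centralizer ({y} : Set G) with hT₀
  have hT₀T : T₀ ≤ T := inf_le_left
  have hyT₀ : ∀ t ∈ T₀, y * t = t * y := by
    intro t ht
    exact (Subgroup.mem_centralizer_iff.mp ht.2) y rfl
  have hT₀ne : T₀ ≠ T := by
    intro h
    apply hyT
    intro t ht
    exact hyT₀ t (by rw [h]; exact ht)
  have hZT₀ : Z ≤ T₀ := by
    intro z hz
    refine ⟨hz.1, Subgroup.mem_centralizer_iff.mpr ?_⟩
    intro g hg
    rw [Set.mem_singleton_iff] at hg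
    subst hg
    exact hZc z hz g
  -- non-degeneracy on `T₀`
  have hnd : ∀ t ∈ T₀, (∀ s ∈ T₀, t * s = s * t) → t ∈ Z := by
    intro t ht hts
    refine ⟨ht.1, Subgroup.mem_centralizer_iff.mpr ?_⟩
    set A := Subgroup.zpowers y with hA
    have hAT : A ≤ Subgroup.normalizer (T : Set G) := by
      rw [Subgroup.normalizer_eq_top_iff.mpr hTn]
      exact le_top
    have hAp : ∃ k, Nat.card A = p ^ k := by
      obtain ⟨k, hk⟩ := hy
      have h1 : orderOf y ∣ p ^ k := orderOf_dvd_of_pow_eq_one hk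
      obtain ⟨j, -, hj⟩ := (Nat.dvd_prime_pow hp.out).mp h1
      exact ⟨j, by rw [hA, Nat.card_zpowers, hj]⟩
    obtain ⟨a, ha⟩ := hAp
    obtain ⟨b, hb⟩ := IsPGroup.iff_card.mp hTr
    have hcop : (Nat.card A).Coprime (Nat.card T) := by
      rw [ha, hb]
      exact Nat.Coprime.pow _ _ ((Nat.coprime_primes hp.out hr).mpr (Ne.symm hrp))
    have hsup := Cfsg.Agent.Lib.Coprime.Action.commutator_sup_fixed hAT hcop (Or.inr inferInstance)
    set Ct := Subgroup.centralizer ({t} : Set G) with hCt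
    have h1 : ⁅T, A⁆ ≤ Ct := by
      rw [Subgroup.commutator_le]
      intro k hk a' ha'
      refine Subgroup.mem_centralizer_iff.mpr ?_
      intro x hx
      rw [Set.mem_singleton_iff] at hx
      subst hx
      have hta : x * a' = a' * x := by
        obtain ⟨m, rfl⟩ := Subgroup.mem_zpowers_iff.mp ha'
        have hc : Commute y x := hyT₀ x ht
        exact ((hc.zpow_left m).eq).symm
      have hz : x * k * x⁻¹ * k⁻¹ ∈ Z := hcommZ x ht.1 k hk
      have hzc := hZc _ hz
      set z := x * k * x⁻¹ * k⁻¹ with hzdef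
      have h2 : x * k * x⁻¹ = z * k := by
        rw [hzdef]
        group
      have h3 : x * (k * a' * k⁻¹ * a'⁻¹) * x⁻¹ = k * a' * k⁻¹ * a'⁻¹ := by
        calc x * (k * a' * k⁻¹ * a'⁻¹) * x⁻¹
            = (x * k * x⁻¹) * (x * a' * x⁻¹) * (x * k * x⁻¹)⁻¹ * (x * a' * x⁻¹)⁻¹ := by group
          _ = (z * k) * a' * (z * k)⁻¹ * a'⁻¹ := by
              rw [h2, hta]
              group
          _ = z * (k * a' * k⁻¹) * z⁻¹ * a'⁻¹ := by group
          _ = k * a' * k⁻¹ * a'⁻¹ := by
              rw [← hzc (k * a' * k⁻¹)]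
              group
      rw [commutatorElement_def]
      calc x * (k * a' * k⁻¹ * a'⁻¹) = x * (k * a' * k⁻¹ * a'⁻¹) * x⁻¹ * x := by group
        _ = k * a' * k⁻¹ * a'⁻¹ * x := by rw [h3]
    have h2 : T ⊓ Subgroup.centralizer (A : Set G) ≤ Ct := by
      intro s hs
      have hs0 : s ∈ T₀ := by
        refine ⟨hs.1, Subgroup.mem_centralizer_iff.mpr ?_⟩
        intro g hg
        rw [Set.mem_singleton_iff] at hg
        subst hg
        exact (Subgroup.mem_centralizer_iff.mp hs.2) g (Subgroup.mem_zpowers g)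
      refine Subgroup.mem_centralizer_iff.mpr ?_
      intro x hx
      rw [Set.mem_singleton_iff] at hx
      subst hx
      exact hts s hs0
    have h3 : T ≤ Ct := by
      rw [← hsup]
      exact sup_le h1 h2
    intro s hs
    exact ((Subgroup.mem_centralizer_iff.mp (h3 hs)) t rfl).symm
  -- the characters
  obtain ⟨θ, e, hθ, he, happ⟩ := homog hχ hprim T hTn
  haveI : Fintype T := Fintype.ofFinite _
  haveI : Fintype T₀ := Fintype.ofFinite _
  have hdeg1 : χ 1 = e * θ 1 := by simpa using happ 1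
  obtain ⟨f, hf⟩ := exists_deg_of_isCharacter (isCharacter_of_isIrrCharacter hθ)
  have hfθ : charDegree θ = f := charDegree_eq_of_eq_natCast hf
  have hfn : f ∣ charDegree χ := ⟨e, by
    apply charDegree_eq_of_eq_natCast
    rw [hdeg1, hf]
    push_cast
    ring⟩
  have hcT : ∀ a b : T, a * b * a⁻¹ * b⁻¹ ∈ Subgroup.center T := by
    intro a b
    rw [Subgroup.mem_center_iff]
    intro g
    apply Subtype.ext
    exact Subgroup.mem_centralizer_iff.mp (hcommZ a a.2 b b.2).2 g g.2
  have hfT : ∀ z ∈ Subgroup.center T, θ z = θ 1 → z = 1 := by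
    intro z _ hz
    apply Subtype.ext
    apply hfaith
    have h1 := happ z
    have h2 := happ 1
    have h3 : ((1 : T) : G) = 1 := rfl
    rw [h3] at h2
    rw [h1, h2, hz]
  have hindex : (Subgroup.center T).index = f ^ 2 := by
    rw [class2_index hθ hcT hfT, hfθ]
  -- on `T₀`
  have hres := isCharacter_restrict T₀ hχc
  have hres0 : (fun n : T₀ => χ n) ≠ 0 := by
    intro h
    have h1 := congrFun h 1
    exact Cfsg.Agent.Lib.Char.Complete.irr_one_ne_zero hχ (by simpa using h1)
  obtain ⟨θ₀, hθ₀, hcon⟩ := exists_irr_constituent (isClassFunction_of_isCharacter hres) hres0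
  obtain ⟨f₀, hf₀⟩ := exists_deg_of_isCharacter (isCharacter_of_isIrrCharacter hθ₀)
  have hf₀θ : charDegree θ₀ = f₀ := charDegree_eq_of_eq_natCast hf₀
  have hcT₀ : ∀ a b : T₀, a * b * a⁻¹ * b⁻¹ ∈ Subgroup.center T₀ := by
    intro a b
    rw [Subgroup.mem_center_iff]
    intro g
    apply Subtype.ext
    exact Subgroup.mem_centralizer_iff.mp (hcommZ a (hT₀T a.2) b (hT₀T b.2)).2 g (hT₀T g.2)
  have hcZ₀ : ∀ z ∈ Subgroup.center T₀, (z : G) ∈ Z := by
    intro z hz
    apply hnd z z.2
    intro s hs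
    have := (Subgroup.mem_center_iff.mp hz) ⟨s, hs⟩
    exact (congrArg Subtype.val this).symm
  have hfT₀ : ∀ z ∈ Subgroup.center T₀, θ₀ z = θ₀ 1 → z = 1 := by
    intro z hz hzθ
    have hzZ := hcZ₀ z hz
    have hzG : (z : G) ∈ Subgroup.center G := by
      rw [Subgroup.mem_center_iff]
      exact hZc _ hzZ
    obtain ⟨ω, hω⟩ := center_acts_scalar ρ _ hzG
    have hσ₀ := hθ₀
    obtain ⟨m₀, σ₀, hσ₀i, hσ₀c⟩ := hσ₀
    haveI := hσ₀i
    obtain ⟨ω₀, hω₀⟩ := center_acts_scalar σ₀ z hz
    have hm₀ : θ₀ 1 ≠ 0 := Cfsg.Agent.Lib.Char.Complete.irr_one_ne_zero hθ₀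
    have hω₀1 : ω₀ = 1 := by
      have h1 : θ₀ z = ω₀ * θ₀ 1 := by
        rw [← hσ₀c]
        simp only [Representation.character, map_one, hω₀, map_smul, smul_eq_mul]
      rw [hzθ] at h1
      have h2 : (ω₀ - 1) * θ₀ 1 = 0 := by
        rw [sub_mul, one_mul, ← h1, sub_self]
      rcases mul_eq_zero.mp h2 with h3 | h3
      · exact sub_eq_zero.mp h3
      · exact absurd h3 hm₀
    have hθ₀t : ∀ t : T₀, θ₀ (t * z) = θ₀ t := by
      intro t
      rw [← hσ₀c]
      simp only [Representation.character, map_mul, hω₀, hω₀1, one_smul, mul_one]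
    have hχt : ∀ t : T₀, χ ((t * z : T₀) : G) = ω * χ t := by
      intro t
      simp only [hχdef, Representation.character, Subgroup.coe_mul, map_mul, hω]
      rw [mul_smul_comm, mul_one, map_smul, smul_eq_mul]
    have hS : ∑ t : T₀, χ t * conj (θ₀ t) = ω * ∑ t : T₀, χ t * conj (θ₀ t) := by
      rw [Finset.mul_sum]
      have h1 := Equiv.sum_comp (Equiv.mulRight z) (fun t : T₀ => χ t * conj (θ₀ t))
      rw [← h1]
      refine Finset.sum_congr rfl fun t _ => ?_
      simp only [Equiv.coe_mulRight]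
      rw [hχt, hθ₀t]
      ring
    have hS0 : ∑ t : T₀, χ t * conj (θ₀ t) ≠ 0 := by
      intro h0
      apply hcon
      rw [classInner, h0, mul_zero]
    have hω1 : ω = 1 := by
      have h2 : (ω - 1) * ∑ t : T₀, χ t * conj (θ₀ t) = 0 := by
        rw [sub_mul, one_mul, ← hS, sub_self]
      rcases mul_eq_zero.mp h2 with h3 | h3
      · exact sub_eq_zero.mp h3
      · exact absurd h3 hS0
    apply Subtype.ext
    apply hfaith
    simp only [hχdef, Representation.character, hω, hω1, one_smul, map_one]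
  have hindex₀ : (Subgroup.center T₀).index = f₀ ^ 2 := by
    rw [class2_index hθ₀ hcT₀ hfT₀, hf₀θ]
  -- the centres have the same order
  have hcenter : Nat.card (Subgroup.center T) = Nat.card (Subgroup.center T₀) := by
    apply Nat.card_congr
    refine
      { toFun := fun z => ⟨⟨z.1.1, hZT₀ ⟨z.1.2, Subgroup.mem_centralizer_iff.mpr ?_⟩⟩, ?_⟩
        invFun := fun z => ⟨⟨z.1.1, hT₀T z.1.2⟩, ?_⟩
        left_inv := fun z => rfl
        right_inv := fun z => rfl }
    · intro g hg
      exact congrArg Subtype.val ((Subgroup.mem_center_iff.mp z.2) ⟨g, hg⟩)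
    · rw [Subgroup.mem_center_iff]
      intro g
      apply Subtype.ext
      have h1 := (Subgroup.mem_center_iff.mp z.2) ⟨g, hT₀T g.2⟩
      have h2 := congrArg (fun x : T => (x : G)) h1
      exact h2
    · rw [Subgroup.mem_center_iff]
      intro g
      apply Subtype.ext
      exact Subgroup.mem_centralizer_iff.mp (hcZ₀ z.1 z.2).2 g g.2
  set u := Nat.card (Subgroup.center T) with hu
  have hcard : Nat.card T = u * f ^ 2 := by
    rw [← hindex]
    exact (Subgroup.card_mul_index _).symm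
  have hcard₀ : Nat.card T₀ = u * f₀ ^ 2 := by
    rw [← hindex₀, hcenter]
    exact (Subgroup.card_mul_index _).symm
  have hcong := card_modEq_centralizer T hTn hy
  rw [hcard, show T ⊓ Subgroup.centralizer ({y} : Set G) = T₀ from rfl, hcard₀] at hcong
  obtain ⟨b, hb⟩ := IsPGroup.iff_card.mp hTr
  have hu0 : 0 < u := Nat.card_pos
  have hud : u ∣ r ^ b := by
    rw [← hb, hcard]
    exact dvd_mul_right _ _
  have hcu : Nat.gcd p u = 1 := by
    apply Nat.Coprime.coprime_dvd_right hud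
    exact Nat.Coprime.pow_right _ ((Nat.coprime_primes hp.out hr).mpr (Ne.symm hrp))
  have hcong2 : f ^ 2 ≡ f₀ ^ 2 [MOD p] := Nat.ModEq.cancel_left_of_coprime hcu hcong
  have hfd : f ∣ r ^ b := by
    rw [← hb, hcard]
    exact dvd_mul_of_dvd_right (dvd_pow_self _ two_ne_zero) _
  have hf₀d : f₀ ∣ r ^ b := by
    have h1 : Nat.card T₀ ∣ Nat.card T := Subgroup.card_dvd_of_le hT₀T
    rw [hb, hcard₀] at h1
    exact dvd_trans (dvd_mul_of_dvd_right (dvd_pow_self _ two_ne_zero) _) h1
  obtain ⟨m, -, hm⟩ := (Nat.dvd_prime_pow hr).mp hfd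
  obtain ⟨m₀, -, hm₀⟩ := (Nat.dvd_prime_pow hr).mp hf₀d
  have hlt : Nat.card T₀ < Nat.card T := by
    have h1 : Nat.card T₀ ≤ Nat.card T := Nat.le_of_dvd Nat.card_pos (Subgroup.card_dvd_of_le hT₀T)
    refine lt_of_le_of_ne h1 ?_
    intro h2
    exact hT₀ne (Subgroup.eq_of_le_of_card_ge hT₀T h2.ge)
  have hmlt : m₀ < m := by
    rw [hcard, hcard₀, hm, hm₀] at hlt
    have h1 : (r ^ m₀) ^ 2 < (r ^ m) ^ 2 := Nat.lt_of_mul_lt_mul_left hlt
    have h2 : r ^ m₀ < r ^ m := lt_of_pow_lt_pow_left₀ 2 (Nat.zero_le _) h1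
    exact (Nat.pow_lt_pow_iff_right hr.one_lt).mp h2
  rw [hm, hm₀, ← pow_mul, ← pow_mul] at hcong2
  have h1 := pow_sub_modEq_one hr hp.out hrp (by omega) hcong2
  have hc : m * 2 - m₀ * 2 = (m - m₀) * 2 := by omega
  rw [hc] at h1
  set c := m - m₀ with hcdef
  have hc1 : 1 ≤ c := by omega
  have hqd : r ^ c ∣ charDegree χ := by
    refine dvd_trans ?_ hfn
    rw [hm]
    exact pow_dvd_pow _ (by omega)
  have h2 : (p : ℤ) ∣ ((r ^ c : ℕ) : ℤ) ^ 2 - 1 := by
    have h3 := (Nat.modEq_iff_dvd.mp h1.symm)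
    push_cast at h3 ⊢
    rw [pow_mul] at h3
    exact h3
  have h3 : (p : ℤ) ∣ (((r ^ c : ℕ) : ℤ) - 1) * (((r ^ c : ℕ) : ℤ) + 1) := by
    have : (((r ^ c : ℕ) : ℤ) - 1) * (((r ^ c : ℕ) : ℤ) + 1) = ((r ^ c : ℕ) : ℤ) ^ 2 - 1 := by ring
    rw [this]
    exact h2
  have hpz : Prime (p : ℤ) := Nat.prime_iff_prime_int.mp hp.out
  refine hNoQ (r ^ c) ((isPrimePow_nat_iff _).mpr ⟨r, c, hr, hc1, rfl⟩) hqd ?_
  rcases hpz.dvd_or_dvd h3 with h4 | h4
  · right; right
    exact (Int.modEq_iff_dvd.mpr (by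
      have : (1 : ℤ) - ((r ^ c : ℕ) : ℤ) = -(((r ^ c : ℕ) : ℤ) - 1) := by ring
      rw [this]
      exact (dvd_neg).mpr h4))
  · left
    exact (Int.modEq_iff_dvd.mpr (by
      have : (-1 : ℤ) - ((r ^ c : ℕ) : ℤ) = -(((r ^ c : ℕ) : ℤ) + 1) := by ring
      rw [this]
      exact (dvd_neg).mpr h4))

/-- The primitive case. -/
theorem prim_closed {p : ℕ} [hp : Fact p.Prime] (hsolv : Group.IsSolvable G) {χ : G → ℂ}
    (hχ : IsIrrCharacter G χ) (hfaith : ∀ g, χ g = χ 1 → g = 1) (hprim : Prim χ)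
    (hNoQ : NoQ p (charDegree χ)) : PClosed p G := by
  classical
  have hpn := hNoQ.not_dvd hp.out
  have hOp := pcore_central hχ hfaith hprim hpn
  have key : ∀ y : G, PEl p y → ∀ r : Nat.Primes, ∀ t ∈ Cfsg.pCore (r : ℕ) G, y * t = t * y := by
    intro y hy r t ht
    by_cases hrp : (r : ℕ) = p
    · rw [hrp] at ht
      exact hOp t ht y
    · by_contra hne
      haveI : Fact (r : ℕ).Prime := ⟨r.2⟩
      let S : Set (Subgroup G) := {U | U.Normal ∧ IsPGroup (r : ℕ) U ∧ ¬ ∀ t ∈ U, y * t = t * y}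
      have hwf : WellFoundedLT (Subgroup G) := inferInstance
      have hne' : S.Nonempty := ⟨Cfsg.pCore (r : ℕ) G, inferInstance,
        Cfsg.Agent.Lib.Core.Basic.pCore_isPGroup, fun h => hne (h t ht)⟩
      obtain ⟨T, hT, hmin⟩ := hwf.wf.has_min S hne'
      refine crit_step hsolv hχ hfaith hprim hNoQ r.2 hrp hy hT.1 hT.2.1 hT.2.2 ?_
      intro U hU hUr hUT
      by_contra hcon
      exact hmin U ⟨hU, hUr, hcon⟩ hUT
  have hF : ∀ y : G, PEl p y → y ∈ Cfsg.fittingSubgroup G := by
    intro y hy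
    apply Cfsg.Agent.Lib.Solvable.Fitting.centralizer_fittingSubgroup_le
    have h1 : Cfsg.fittingSubgroup G ≤ Subgroup.centralizer ({y} : Set G) := by
      rw [Cfsg.Agent.Lib.Core.Basic.fittingSubgroup_eq_iSup_pCore]
      refine iSup_le fun r => ?_
      intro t ht
      refine Subgroup.mem_centralizer_iff.mpr ?_
      intro g hg
      rw [Set.mem_singleton_iff] at hg
      subst hg
      exact key g hy r t ht
    refine Subgroup.mem_centralizer_iff.mpr ?_
    intro t ht
    exact ((Subgroup.mem_centralizer_iff.mp (h1 ht)) y rfl).symm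
  intro x y hx hy
  have hxF := hF x hx
  have hyF := hF y hy
  have hcl : PClosed p (Cfsg.fittingSubgroup G) :=
    closed_of_isNilpotent Cfsg.Agent.Lib.Core.Basic.fittingSubgroup_isNilpotent
  have hx' : PEl p (⟨x, hxF⟩ : Cfsg.fittingSubgroup G) := by
    obtain ⟨k, hk⟩ := hx
    exact ⟨k, Subtype.ext (by simpa using hk)⟩
  have hy' : PEl p (⟨y, hyF⟩ : Cfsg.fittingSubgroup G) := by
    obtain ⟨k, hk⟩ := hy
    exact ⟨k, Subtype.ext (by simpa using hk)⟩
  obtain ⟨k, hk⟩ := hcl _ _ hx' hy'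
  exact ⟨k, by simpa using congrArg Subtype.val hk⟩

end Prim

section Main

/-- The inductive form of Winter's theorem. -/
theorem closed_main {p : ℕ} [hp : Fact p.Prime] : ∀ (n : ℕ) (G : Type u) [Group G] [Finite G],
    Nat.card G = n → Group.IsSolvable G → ∀ χ : G → ℂ, IsIrrCharacter G χ →
      (∀ g, χ g = χ 1 → g = 1) → NoQ p (charDegree χ) → PClosed p G := by
  intro n
  induction n using Nat.strong_induction_on with
  | _ n ih =>
  intro G _ _ hn hsolv χ hχ hfaith hNoQ
  letI : Fintype G := Fintype.ofFinite G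
  by_cases hex : ∃ H : Subgroup G, H ≠ ⊤ ∧ ∃ θ : H → ℂ, IsCharacter H θ ∧ χ = indFun H θ
  · refine imprim_closed ?_ hsolv hχ hfaith hNoQ hex
    intro K _ _ hK hKs φ hφ hφf hφN
    exact ih _ (hn ▸ hK) K rfl hKs φ hφ hφf hφN
  · apply prim_closed hsolv hχ hfaith _ hNoQ
    intro H hH θ hθ he
    exact hex ⟨H, hH, θ, hθ, he⟩

/-- **Winter's theorem** on the degrees of faithful irreducible characters of solvable groups. -/
theorem main {G : Type u} [Group G] [Finite G] (χ : IrrCharacter G)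
    (hfaith : ∀ g : G, (χ : G → ℂ) g = (χ : G → ℂ) 1 → g = 1) (n : ℕ)
    (hn : charDegree (χ : G → ℂ) = n) (hsolv : Group.IsSolvable G) (p : ℕ) (hp : p.Prime)
    (P : Sylow p G) (hP : ¬ (P : Subgroup G).Normal) :
    ∃ q : ℕ, IsPrimePow q ∧ q ∣ n ∧
      ((q : ℤ) ≡ -1 [ZMOD p] ∨ (q : ℤ) ≡ 0 [ZMOD p] ∨ (q : ℤ) ≡ 1 [ZMOD p]) := by
  by_contra hcon
  push Not at hcon
  haveI : Fact p.Prime := ⟨hp⟩
  apply hP
  apply normal_of_closed
  apply closed_main _ G rfl hsolv χ.1 χ.2 hfaith
  rw [hn]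
  intro q hq hqn h
  obtain ⟨h1, h2, h3⟩ := hcon q hq hqn
  rcases h with h | h | h
  · exact h1 h
  · exact h2 h
  · exact h3 h

end Main

end Cfsg.Agent.Lib.Char.WinterQ
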